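import Mathlib
import Cfsg.Prelude.Def_Blocks
import Cfsg.Agent.Lib.Helper53.ZStarChar
import Cfsg.Agent.Lib.Helper79.ClassMult
import Cfsg.Agent.Lib.Helper81.CharCore
import Cfsg.Agent.Lib.Helper80.CharOps
import Cfsg.Agent.Lib.Helper78.PrincipalVal
import Cfsg.Agent.S0944

/-!
# Column relations in the principal `2`-block for an involution that inverts no `2`-element
of a given set (Brauer)

* `sign_lemma`: the real-number argument about signs;
* `blockcol_rels`: the three column relations at a single `2`-element `y` that no conjugate of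
  the involution `t` inverts.
-/

set_option autoImplicit false

namespace Cfsg.Agent.Lib.Helper53

section signs

/-- the sign argument, normalised so that the distinguished coefficient is positive -/
theorem sign_aux {ι : Type*} (B : Finset ι) (α d c : ι → ℝ) (i₀ : ι)
    (hi₀ : i₀ ∈ B) (hd : ∀ i ∈ B, 0 < d i) (hc0 : c i₀ = d i₀) (hα0 : 0 < α i₀)
    (R1 : ∑ i ∈ B, α i * d i = 0) (R2 : ∑ i ∈ B, α i * c i = 0)
    (R3 : ∑ i ∈ B, α i * (c i ^ 2 / d i) = 0) :
    (2 ≤ (B.filter (fun i => 0 < α i)).card ∧ 2 ≤ (B.filter (fun i => α i < 0)).card) ∨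
      ∃ i ∈ B, i ≠ i₀ ∧ α i ≠ 0 ∧ c i = d i := by
  classical
  have key : ∀ ν : ℝ, ∑ i ∈ B, α i * d i * (ν - c i / d i) ^ 2 = 0 := by
    intro ν
    have h : ∀ i ∈ B, α i * d i * (ν - c i / d i) ^ 2 =
        ν ^ 2 * (α i * d i) - 2 * ν * (α i * c i) + α i * (c i ^ 2 / d i) := by
      intro i hi
      have := (hd i hi).ne'
      field_simp
      ring
    rw [Finset.sum_congr rfl h, Finset.sum_add_distrib, Finset.sum_sub_distrib, ← Finset.mul_sum,
      ← Finset.mul_sum, R1, R2, R3]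
    ring
  obtain ⟨j, hjB, hj⟩ : ∃ j ∈ B, α j < 0 := by
    by_contra hcon
    push Not at hcon
    have h0 := (Finset.sum_eq_zero_iff_of_nonneg
      (fun i hi => mul_nonneg (hcon i hi) (hd i hi).le)).mp R1 i₀ hi₀
    have := mul_pos hα0 (hd i₀ hi₀)
    linarith
  have hji : j ≠ i₀ := by
    rintro rfl
    linarith
  by_cases hpos : 2 ≤ (B.filter (fun i => 0 < α i)).card
  · by_cases hneg : 2 ≤ (B.filter (fun i => α i < 0)).card
    · exact Or.inl ⟨hpos, hneg⟩
    · right
      have huniq : ∀ i ∈ B, α i < 0 → i = j := by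
        intro i hi hαi
        have hle : (B.filter (fun i => α i < 0)).card ≤ 1 := by omega
        exact Finset.card_le_one.mp hle i (Finset.mem_filter.mpr ⟨hi, hαi⟩) j
          (Finset.mem_filter.mpr ⟨hjB, hj⟩)
      have hk := key (c j / d j)
      have hnn : ∀ i ∈ B, 0 ≤ α i * d i * (c j / d j - c i / d i) ^ 2 := by
        intro i hi
        by_cases hαi : α i < 0
        · rw [huniq i hi hαi]
          simp
        · exact mul_nonneg (mul_nonneg (not_lt.mp hαi) (hd i hi).le) (sq_nonneg _)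
      have h0 := (Finset.sum_eq_zero_iff_of_nonneg hnn).mp hk i₀ hi₀
      rw [hc0, div_self (hd i₀ hi₀).ne'] at h0
      have h1 : (c j / d j - 1) ^ 2 = 0 := by
        rcases mul_eq_zero.mp h0 with h | h
        · exact absurd h (mul_pos hα0 (hd i₀ hi₀)).ne'
        · exact h
      have h2 : c j / d j = 1 := by
        have := (pow_eq_zero_iff (n := 2) (by norm_num)).mp h1
        linarith
      exact ⟨j, hjB, hji, hj.ne, (div_eq_one_iff_eq (hd j hjB).ne').mp h2⟩
  · right
    have huniq : ∀ i ∈ B, 0 < α i → i = i₀ := by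
      intro i hi hαi
      have hle : (B.filter (fun i => 0 < α i)).card ≤ 1 := by omega
      exact Finset.card_le_one.mp hle i (Finset.mem_filter.mpr ⟨hi, hαi⟩) i₀
        (Finset.mem_filter.mpr ⟨hi₀, hα0⟩)
    have hk := key 1
    have hnp : ∀ i ∈ B, α i * d i * (1 - c i / d i) ^ 2 ≤ 0 := by
      intro i hi
      by_cases hαi : 0 < α i
      · rw [huniq i hi hαi, hc0, div_self (hd i₀ hi₀).ne']
        simp
      · exact mul_nonpos_of_nonpos_of_nonneg
          (mul_nonpos_of_nonpos_of_nonneg (not_lt.mp hαi) (hd i hi).le) (sq_nonneg _)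
    have h0 := (Finset.sum_eq_zero_iff_of_nonpos hnp).mp hk j hjB
    have h1 : (1 - c j / d j) ^ 2 = 0 := by
      rcases mul_eq_zero.mp h0 with h | h
      · exact absurd h (mul_neg_of_neg_of_pos hj (hd j hjB)).ne
      · exact h
    have h2 : c j / d j = 1 := by
      have := (pow_eq_zero_iff (n := 2) (by norm_num)).mp h1
      linarith
    exact ⟨j, hjB, hji, hj.ne, (div_eq_one_iff_eq (hd j hjB).ne').mp h2⟩

/-- **The sign argument.**  Real numbers `α i`, positive `d i` and `c i` with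
`∑ α d = ∑ α c = ∑ α c²/d = 0`, a distinguished index with `c = d` and `α ≠ 0`: either at least
two `α` are positive and at least two negative, or another index has `α ≠ 0` and `c = d`. -/
theorem sign_lemma {ι : Type*} (B : Finset ι) (α d c : ι → ℝ) (i₀ : ι)
    (hi₀ : i₀ ∈ B) (hd : ∀ i ∈ B, 0 < d i) (hc0 : c i₀ = d i₀) (hα0 : α i₀ ≠ 0)
    (R1 : ∑ i ∈ B, α i * d i = 0) (R2 : ∑ i ∈ B, α i * c i = 0)
    (R3 : ∑ i ∈ B, α i * (c i ^ 2 / d i) = 0) :
    (2 ≤ (B.filter (fun i => 0 < α i)).card ∧ 2 ≤ (B.filter (fun i => α i < 0)).card) ∨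
      ∃ i ∈ B, i ≠ i₀ ∧ α i ≠ 0 ∧ c i = d i := by
  rcases lt_or_gt_of_ne hα0 with h | h
  · have h' := sign_aux B (fun i => - α i) d c i₀ hi₀ hd hc0 (by simpa using h)
      (by simp only [neg_mul, Finset.sum_neg_distrib, R1, neg_zero])
      (by simp only [neg_mul, Finset.sum_neg_distrib, R2, neg_zero])
      (by simp only [neg_mul, Finset.sum_neg_distrib, R3, neg_zero])
    simp only [Left.neg_pos_iff, Left.neg_neg_iff, neg_ne_zero] at h'
    rcases h' with ⟨h1, h2⟩ | h'
    · exact Or.inl ⟨h2, h1⟩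
    · exact Or.inr h'
  · exact sign_aux B α d c i₀ hi₀ hd hc0 h R1 R2 R3

end signs

section rels

variable {G : Type*} [Group G] [Fintype G] [Fintype (Cfsg.IrrCharacter G)]

/-- **Column relations at a single element.**  Let `y` be a `2`-element that no conjugate of the
involution `t` inverts.  Then the column of `y` in the principal `2`-block is orthogonal to the
columns `χ ↦ χ 1`, `χ ↦ χ t` and `χ ↦ χ t ^ 2 / χ 1`. -/
theorem blockcol_rels (M : Ideal Cfsg.AlgInt) (hM : Cfsg.IsPModular 2 M) (t : G)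
    (ht : orderOf t = 2) (y : G) (hy2 : ∃ k : ℕ, orderOf y = 2 ^ k)
    (hyt : ∀ g : G, (g * t * g⁻¹) * y * (g * t * g⁻¹)⁻¹ ≠ y⁻¹)
    (B : Finset (Cfsg.IrrCharacter G))
    (hB : ∀ χ : Cfsg.IrrCharacter G, χ ∈ B ↔ χ ∈ Cfsg.principalBlock M G) :
    (∑ χ ∈ B, (χ : G → ℂ) y * (χ : G → ℂ) 1 = 0) ∧
    (∑ χ ∈ B, (χ : G → ℂ) y * (χ : G → ℂ) t = 0) ∧
    (∑ χ ∈ B, (χ : G → ℂ) y * ((χ : G → ℂ) t * (χ : G → ℂ) t / (χ : G → ℂ) 1) = 0) := by
  classical
  haveI : Fact (Nat.Prime 2) := ⟨Nat.prime_two⟩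
  have hG : (Nat.card G : ℂ) ≠ 0 := by exact_mod_cast Nat.card_pos.ne'
  have htt : t * t = 1 := mul_self_of_orderOf_two ht
  have htinv : t⁻¹ = t := inv_eq_self_of_orderOf_two ht
  have hfilter : Finset.univ.filter
      (fun χ : Cfsg.IrrCharacter G => χ ∈ Cfsg.principalBlock M G) = B := by
    ext χ
    simp [hB χ]
  have hyPP : Cfsg.IsPPart 2 y y :=
    ⟨1, mul_one y, Commute.one_right y, hy2, by rw [orderOf_one]; norm_num⟩
  have hy1 : y ≠ 1 := by
    rintro rfl
    exact hyt 1 (by simp)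
  have horth : ∀ w x : G, Cfsg.IsPPart 2 w x → ¬ IsConj y x →
      ∑ χ ∈ B, (χ : G → ℂ) y * (χ : G → ℂ) w⁻¹ = 0 := by
    intro w x hwx hc
    have h1 := Cfsg.Agent.Lib.Helper78.block_orth_sum hM (Cfsg.principalBlock M G)
      (Cfsg.Agent.Lib.Helper77.isPBlock_principalBlock M) hyPP hwx hc
    rw [Cfsg.Agent.Lib.Helper16.finsum_mem_eq_sum_ite, ← Finset.sum_filter, hfilter] at h1
    exact h1
  refine ⟨?_, ?_, ?_⟩
  · have h1 := horth 1 1 ⟨1, mul_one 1, Commute.one_right 1, ⟨0, by simp⟩, by simp⟩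
      (by rw [isConj_one_left]; exact hy1)
    rw [inv_one] at h1
    exact h1
  · have htPP : Cfsg.IsPPart 2 t t :=
      ⟨1, mul_one t, Commute.one_right t, ⟨1, by rw [ht]; norm_num⟩, by rw [orderOf_one]; norm_num⟩
    have hc : ¬ IsConj y t := by
      rw [isConj_iff]
      rintro ⟨c, hc⟩
      apply hyt c⁻¹
      have hy : y = c⁻¹ * t * c := by
        rw [← hc]
        group
      rw [inv_inv, ← hy]
      have hyy : y * y = 1 := by
        rw [hy]
        calc c⁻¹ * t * c * (c⁻¹ * t * c) = c⁻¹ * (t * t) * c := by group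
          _ = 1 := by rw [htt]; group
      rw [mul_inv_cancel_right]
      exact eq_inv_of_mul_eq_one_left hyy
    have h1 := horth t t htPP hc
    rw [htinv] at h1
    exact h1
  · obtain ⟨β, hβ⟩ : ∃ β : G → ℂ, β = fun w => ∑ ψ : Cfsg.IrrCharacter G,
        (ψ : G → ℂ) t * (ψ : G → ℂ) t / (ψ : G → ℂ) 1 * (ψ : G → ℂ) w := ⟨_, rfl⟩
    have hor : ∀ w : G, β w = 0 ∨ ∑ χ ∈ B, (χ : G → ℂ) y * (χ : G → ℂ) w⁻¹ = 0 := by
      intro w
      by_cases hex : ∃ g : G, IsConj (g * t * g⁻¹ * t) w⁻¹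
      · right
        obtain ⟨g, hg⟩ := hex
        rw [isConj_iff] at hg
        obtain ⟨k, hk⟩ := hg
        obtain ⟨a, ha⟩ : ∃ a : G, a = (k * g) * t * (k * g)⁻¹ := ⟨_, rfl⟩
        have hw : w = k * (t * g * t * g⁻¹) * k⁻¹ := by
          have h1 : w = k * (t⁻¹ * g * t⁻¹ * g⁻¹) * k⁻¹ := by
            rw [← inv_inv w, ← hk]
            group
          rw [htinv] at h1
          exact h1
        have haw : a * w * a⁻¹ = w⁻¹ := by
          have h1 : a * (k * (t * g * t * g⁻¹) * k⁻¹) * a⁻¹ = k * (g * t * g⁻¹ * t) * k⁻¹ := by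
            rw [ha]
            group
          rw [← hw] at h1
          rw [h1, hk]
        obtain ⟨x, hx⟩ := Cfsg.Agent.Lib.Helper78.exists_isPPart Nat.prime_two w
        obtain ⟨c, hc, -⟩ := Cfsg.Agent.Lib.Helper78.isPPart_zpow_eq Nat.prime_two hx hx 1
          (by norm_num)
        rw [pow_one] at hc
        have hax : a * x * a⁻¹ = x⁻¹ := by
          rw [← hc, ← conj_zpow, haw, inv_zpow]
        have hnc : ¬ IsConj y x := by
          rw [isConj_iff]
          rintro ⟨h, hh⟩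
          apply hyt (h⁻¹ * (k * g))
          have e1 : (h⁻¹ * (k * g)) * t * (h⁻¹ * (k * g))⁻¹ = h⁻¹ * a * h := by
            rw [ha]
            group
          rw [e1]
          have e2 : h⁻¹ * a * h * y * (h⁻¹ * a * h)⁻¹ = h⁻¹ * (a * (h * y * h⁻¹) * a⁻¹) * h := by
            group
          rw [e2, hh, hax, ← hh]
          group
        exact horth w x hx hnc
      · left
        have h1 := Cfsg.Agent.Lib.Helper79.irr_class_mult t t w⁻¹
        rw [inv_inv] at h1
        rw [hβ]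
        show ∑ ψ : Cfsg.IrrCharacter G,
          (ψ : G → ℂ) t * (ψ : G → ℂ) t / (ψ : G → ℂ) 1 * (ψ : G → ℂ) w = 0
        rw [h1]
        have hempty : (Finset.univ.filter (fun g : G => IsConj (g * t * g⁻¹ * t) w⁻¹)) = ∅ := by
          rw [Finset.filter_eq_empty_iff]
          intro g _ hconj
          exact hex ⟨g, hconj⟩
        rw [hempty]
        simp
    have hpair : ∀ χ : Cfsg.IrrCharacter G, ∑ w : G, β w * (χ : G → ℂ) w⁻¹ =
        (Nat.card G : ℂ) * ((χ : G → ℂ) t * (χ : G → ℂ) t / (χ : G → ℂ) 1) := by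
      intro χ
      rw [hβ]
      simp only [Finset.sum_mul]
      rw [Finset.sum_comm]
      have h1 : ∀ ψ : Cfsg.IrrCharacter G,
          ∑ w : G, (ψ : G → ℂ) t * (ψ : G → ℂ) t / (ψ : G → ℂ) 1 * (ψ : G → ℂ) w *
            (χ : G → ℂ) w⁻¹ =
          (ψ : G → ℂ) t * (ψ : G → ℂ) t / (ψ : G → ℂ) 1 *
            (if ψ = χ then (Nat.card G : ℂ) else 0) := by
        intro ψ
        rw [← Cfsg.Agent.Lib.Helper81.irr_orth ψ χ, Finset.mul_sum]
        refine Finset.sum_congr rfl (fun w _ => ?_)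
        ring
      rw [Finset.sum_congr rfl (fun ψ _ => h1 ψ)]
      simp only [mul_ite, mul_zero]
      rw [Finset.sum_ite_eq' Finset.univ χ]
      simp only [Finset.mem_univ, if_true]
      ring
    have h0 : ∑ w : G, β w * ∑ χ ∈ B, (χ : G → ℂ) y * (χ : G → ℂ) w⁻¹ = 0 := by
      refine Finset.sum_eq_zero (fun w _ => ?_)
      rcases hor w with h | h
      · rw [h, zero_mul]
      · rw [h, mul_zero]
    have h1 : ∑ w : G, β w * ∑ χ ∈ B, (χ : G → ℂ) y * (χ : G → ℂ) w⁻¹ =
        (Nat.card G : ℂ) * ∑ χ ∈ B, (χ : G → ℂ) y *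
          ((χ : G → ℂ) t * (χ : G → ℂ) t / (χ : G → ℂ) 1) := by
      simp only [Finset.mul_sum]
      rw [Finset.sum_comm]
      refine Finset.sum_congr rfl (fun χ _ => ?_)
      have h2 : ∀ w : G, β w * ((χ : G → ℂ) y * (χ : G → ℂ) w⁻¹) =
          (χ : G → ℂ) y * (β w * (χ : G → ℂ) w⁻¹) := fun w => by ring
      rw [Finset.sum_congr rfl (fun w _ => h2 w), ← Finset.mul_sum, hpair χ]
      ring
    rw [h1] at h0
    exact (mul_eq_zero.mp h0).resolve_left hG

end rels

end Cfsg.Agent.Lib.Helper53
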