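import Mathlib
import Cfsg.Agent.Lib.Helper73.DihedralIso

set_option autoImplicit false

namespace Cfsg.Agent.Lib.Helper53

section basic

variable {G : Type*} [Group G]

/-- `x y = y x c`, `c` commuting with `x`: `x^k y = y x^k c^k`. -/
theorem pow_mul_of_comm {x y c : G} (h : x * y = y * x * c) (hcx : Commute c x) (k : ℕ) :
    x ^ k * y = y * x ^ k * c ^ k := by
  induction k with
  | zero => simp
  | succ k ih =>
    have e := (hcx.pow_left k).eq
    calc x ^ (k + 1) * y = x ^ k * (x * y) := by rw [pow_succ, mul_assoc]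
      _ = x ^ k * y * x * c := by rw [h]; simp only [mul_assoc]
      _ = y * x ^ k * (c ^ k * x) * c := by rw [ih]; simp only [mul_assoc]
      _ = y * x ^ k * (x * c ^ k) * c := by rw [e]
      _ = y * x ^ (k + 1) * c ^ (k + 1) := by rw [pow_succ, pow_succ]; simp only [mul_assoc]

/-- `x y = y x c`, `c` commuting with `y`: `x y^k = y^k x c^k`. -/
theorem mul_pow_of_comm' {x y c : G} (h : x * y = y * x * c) (hcy : Commute c y) (k : ℕ) :
    x * y ^ k = y ^ k * x * c ^ k := by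
  induction k with
  | zero => simp
  | succ k ih =>
    have e := (hcy.pow_left k).eq
    calc x * y ^ (k + 1) = x * y ^ k * y := by rw [pow_succ, mul_assoc]
      _ = y ^ k * x * (c ^ k * y) := by rw [ih]; simp only [mul_assoc]
      _ = y ^ k * (x * y) * c ^ k := by rw [e]; simp only [mul_assoc]
      _ = y ^ k * (y * x * c) * c ^ k := by rw [h]
      _ = y ^ (k + 1) * x * c ^ (k + 1) := by rw [pow_succ, pow_succ']; simp only [mul_assoc]

/-- `v u = u v d`, `d` commuting with `u` and `v`: `(u v)^k = u^k v^k d^(k choose 2)`. -/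
theorem mul_pow_of_comm {u v d : G} (h : v * u = u * v * d) (hdu : Commute d u)
    (hdv : Commute d v) (k : ℕ) : (u * v) ^ k = u ^ k * v ^ k * d ^ (k.choose 2) := by
  induction k with
  | zero => simp
  | succ k ih =>
    have e1 := pow_mul_of_comm h hdv k
    have e2 : d ^ (k.choose 2) * u = u * d ^ (k.choose 2) := (hdu.pow_left _).eq
    have e3 : d ^ (k.choose 2) * v = v * d ^ (k.choose 2) := (hdv.pow_left _).eq
    have e4 : d ^ k * v = v * d ^ k := (hdv.pow_left _).eq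
    have hch : (k + 1).choose 2 = k + k.choose 2 := by
      rw [Nat.choose_succ_succ', Nat.choose_one_right]
    calc (u * v) ^ (k + 1) = u ^ k * v ^ k * d ^ (k.choose 2) * (u * v) := by rw [pow_succ, ih]
      _ = u ^ k * v ^ k * (d ^ (k.choose 2) * u) * v := by simp only [mul_assoc]
      _ = u ^ k * (v ^ k * u) * (d ^ (k.choose 2) * v) := by rw [e2]; simp only [mul_assoc]
      _ = u ^ k * (u * v ^ k * d ^ k) * (v * d ^ (k.choose 2)) := by rw [e1, e3]
      _ = u ^ k * u * v ^ k * (d ^ k * v) * d ^ (k.choose 2) := by simp only [mul_assoc]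
      _ = u ^ (k + 1) * v ^ (k + 1) * d ^ ((k + 1).choose 2) := by
          rw [e4, hch, pow_succ u, pow_succ v, pow_add d]; simp only [mul_assoc]

/-- In a group with all subgroups normal, a commutator lies in both cyclic subgroups. -/
theorem comm_mem_of_dedekind (hn : ∀ H : Subgroup G, H.Normal) (x y : G) :
    x⁻¹ * y⁻¹ * x * y ∈ Subgroup.zpowers x ∧ x⁻¹ * y⁻¹ * x * y ∈ Subgroup.zpowers y := by
  constructor
  · have h1 : y⁻¹ * x * y⁻¹⁻¹ ∈ Subgroup.zpowers x :=
      (hn (Subgroup.zpowers x)).conj_mem x (Subgroup.mem_zpowers x) y⁻¹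
    rw [inv_inv] at h1
    have h2 := Subgroup.mul_mem _ (Subgroup.inv_mem _ (Subgroup.mem_zpowers x)) h1
    have e : x⁻¹ * y⁻¹ * x * y = x⁻¹ * (y⁻¹ * x * y) := by simp only [mul_assoc]
    rw [e]
    exact h2
  · have h1 : x⁻¹ * y⁻¹ * x⁻¹⁻¹ ∈ Subgroup.zpowers y :=
      (hn _).conj_mem y⁻¹ (Subgroup.inv_mem _ (Subgroup.mem_zpowers y)) x⁻¹
    rw [inv_inv] at h1
    exact Subgroup.mul_mem _ h1 (Subgroup.mem_zpowers y)

theorem commute_of_mem_zpowers {c x : G} (h : c ∈ Subgroup.zpowers x) : Commute c x := by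
  obtain ⟨k, rfl⟩ := Subgroup.mem_zpowers_iff.mp h
  exact (Commute.refl x).zpow_left k

end basic

section arith

/-- for an odd prime `p` and `k` divisible by `p`, `p` divides `k choose 2`. -/
theorem dvd_choose_two_of_odd {p k : ℕ} (hp : p.Prime) (hp2 : p ≠ 2) (hk : p ∣ k) :
    p ∣ k.choose 2 := by
  have h1 : k.choose 2 * 2 = k * (k - 1) := by
    rw [Nat.choose_two_right]
    exact Nat.div_mul_cancel (Nat.even_mul_pred_self k).two_dvd
  have h2 : p ∣ k.choose 2 * 2 := by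
    rw [h1]
    exact Dvd.dvd.mul_right hk _
  have hcop : Nat.Coprime p 2 := by
    rw [Nat.coprime_primes hp Nat.prime_two]
    exact hp2
  exact hcop.dvd_of_dvd_mul_right h2

/-- `2` divides `k choose 2` when `4 ∣ k`. -/
theorem two_dvd_choose_two {k : ℕ} (hk : 4 ∣ k) : 2 ∣ k.choose 2 := by
  obtain ⟨j, rfl⟩ := hk
  rw [Nat.choose_two_right]
  have : 4 * j * (4 * j - 1) = 2 * (2 * j * (4 * j - 1)) := by ring
  rw [this, Nat.mul_div_cancel_left _ (by norm_num : 0 < 2)]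
  exact ⟨j * (4 * j - 1), by ring⟩

end arith

section core

variable {G : Type*} [Group G] [Finite G]

theorem exists_pow_eq_of_mem_zpowers {c y : G} (h : c ∈ Subgroup.zpowers y) :
    ∃ k : ℕ, y ^ k = c := by
  rw [← mem_powers_iff_mem_zpowers] at h
  exact (Submonoid.mem_powers_iff c y).mp h

/-- an element `c` of prime order `p` in a cyclic group `⟨y⟩` of order `p^n` and the element
`y^(p^(n-1))` are powers of each other -/
theorem pow_prime_pow_mem_zpowers {c y : G} {p n : ℕ} (hp : p.Prime)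
    (hc : c ∈ Subgroup.zpowers y) (hcp : orderOf c = p) (hy : orderOf y = p ^ n) :
    1 ≤ n ∧ (∃ j : ℕ, c = (y ^ (p ^ (n - 1))) ^ j) ∧ ∃ j : ℕ, y ^ (p ^ (n - 1)) = c ^ j := by
  have hc1 : c ≠ 1 := by
    intro h
    rw [h, orderOf_one] at hcp
    exact hp.one_lt.ne hcp
  have hn1 : 1 ≤ n := by
    by_contra h0
    have h0' : n = 0 := by omega
    rw [h0', pow_zero, orderOf_eq_one_iff] at hy
    rw [hy, Subgroup.zpowers_one_eq_bot, Subgroup.mem_bot] at hc
    exact hc1 hc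
  obtain ⟨k, hk⟩ := exists_pow_eq_of_mem_zpowers hc
  have h1 : y ^ (k * p) = 1 := by rw [pow_mul, hk, ← hcp, pow_orderOf_eq_one]
  have e : p ^ n = p ^ (n - 1) * p := by
    rw [← pow_succ]
    congr 1
    omega
  have h2 : p ^ n ∣ k * p := by
    rw [← hy]
    exact orderOf_dvd_of_pow_eq_one h1
  have h3 : p ^ (n - 1) ∣ k := by
    rw [e] at h2
    exact Nat.dvd_of_mul_dvd_mul_right hp.pos h2
  obtain ⟨j, rfl⟩ := h3
  have hcw : c = (y ^ (p ^ (n - 1))) ^ j := by rw [← pow_mul, hk]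
  have hwo : orderOf (y ^ (p ^ (n - 1))) = p := by
    rw [orderOf_pow_of_dvd (pow_pos hp.pos _).ne' (by rw [hy]; exact pow_dvd_pow p (by omega)), hy,
      e, Nat.mul_div_cancel_left _ (pow_pos hp.pos _)]
  have hpj : ¬ p ∣ j := by
    rintro ⟨i, rfl⟩
    apply hc1
    rw [hcw, pow_mul]
    nth_rewrite 2 [← hwo]
    rw [pow_orderOf_eq_one, one_pow]
  have hcop : Nat.Coprime j p := Nat.Coprime.symm ((Nat.Prime.coprime_iff_not_dvd hp).mpr hpj)
  obtain ⟨j', -, hj'⟩ := Nat.exists_mul_mod_eq_one_of_coprime hcop hp.one_lt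
  refine ⟨hn1, ⟨j, hcw⟩, j', ?_⟩
  rw [hcw, ← pow_mul]
  have h4 : (y ^ (p ^ (n - 1))) ^ (j * j') = (y ^ (p ^ (n - 1))) ^ (j * j' % orderOf (y ^ (p ^ (n - 1)))) :=
    (pow_mod_orderOf _ (j * j')).symm
  rw [h4, hwo, hj', pow_one]

/-- the reduction step for a non-commuting pair of `p`-elements in a Dedekind group -/
theorem dedekind_core (x y c : G) (p m n : ℕ) (hp : p.Prime)
    (hrel : x * y = y * x * c) (hcx : c ∈ Subgroup.zpowers x) (hcy : c ∈ Subgroup.zpowers y)
    (hcp : orderOf c = p) (hm : orderOf x = p ^ m) (hn : orderOf y = p ^ n) (hnm : n ≤ m) :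
    (p = 2 ∧ m = 2 ∧ n = 2) ∨ ∃ z : G, x * z ≠ z * x ∧ orderOf z < orderOf y := by
  have hc1 : c ≠ 1 := by
    intro h
    rw [h, orderOf_one] at hcp
    exact hp.one_lt.ne hcp
  have hxy : x * y ≠ y * x := by
    intro h
    rw [h] at hrel
    exact hc1 (left_eq_mul.mp hrel)
  have hcomx := commute_of_mem_zpowers hcx
  have hcomy := commute_of_mem_zpowers hcy
  obtain ⟨hn1, -, j', hj'⟩ := pow_prime_pow_mem_zpowers hp hcy hcp hn
  obtain ⟨hm1, ⟨i, hi⟩, -⟩ := pow_prime_pow_mem_zpowers hp hcx hcp hm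
  have hw : y ^ (p ^ (n - 1)) = x ^ (p ^ (m - 1) * (i * j')) := by
    rw [hj']
    nth_rewrite 1 [hi]
    rw [← pow_mul, ← pow_mul]
  have hn2 : 2 ≤ n := by
    by_contra h
    have h1 : n = 1 := by omega
    rw [h1] at hw
    simp only [Nat.sub_self, pow_zero, pow_one] at hw
    apply hxy
    rw [hw]
    exact ((Commute.refl x).pow_right _).eq
  by_cases hex : p = 2 ∧ m = 2 ∧ n = 2
  · left
    exact hex
  right
  obtain ⟨K, hK⟩ : ∃ K, K = p ^ (m - n) * (i * j') := ⟨_, rfl⟩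
  have hu : (x ^ K) ^ (p ^ (n - 1)) = y ^ (p ^ (n - 1)) := by
    rw [hw, ← pow_mul, hK]
    congr 1
    have h1 : p ^ (m - 1) = p ^ (m - n) * p ^ (n - 1) := by
      rw [← pow_add]
      congr 1
      omega
    rw [h1]
    ring
  have h1 := pow_mul_of_comm hrel hcomx K
  have hcK : Commute (c ^ K) (x ^ K) := (hcomx.pow_left K).pow_right K
  have hrel' : y * (x ^ K)⁻¹ = (x ^ K)⁻¹ * y * c ^ K := by
    calc y * (x ^ K)⁻¹ = (x ^ K)⁻¹ * (x ^ K * y) * (x ^ K)⁻¹ := by group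
      _ = (x ^ K)⁻¹ * (y * x ^ K * c ^ K) * (x ^ K)⁻¹ := by rw [h1]
      _ = (x ^ K)⁻¹ * y * (x ^ K * c ^ K) * (x ^ K)⁻¹ := by simp only [mul_assoc]
      _ = (x ^ K)⁻¹ * y * (c ^ K * x ^ K) * (x ^ K)⁻¹ := by rw [hcK.eq]
      _ = (x ^ K)⁻¹ * y * c ^ K := by group
  have hd1 : Commute (c ^ K) (x ^ K)⁻¹ := hcK.inv_right
  have hd2 : Commute (c ^ K) y := hcomy.pow_left K
  have hz := mul_pow_of_comm hrel' hd1 hd2 (p ^ (n - 1))
  have hdvd : p ∣ K * (p ^ (n - 1)).choose 2 := by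
    by_cases hmn : n < m
    · apply Dvd.dvd.mul_right
      rw [hK]
      apply Dvd.dvd.mul_right
      exact dvd_pow_self p (by omega)
    · have hmn' : m = n := by omega
      apply Dvd.dvd.mul_left
      by_cases hp2 : p = 2
      · have hn3 : 3 ≤ n := by
          by_contra h
          exact hex ⟨hp2, by omega, by omega⟩
        rw [hp2]
        apply two_dvd_choose_two
        have h4 : (2:ℕ) ^ (n - 1) = 4 * 2 ^ (n - 3) := by
          have h5 : n - 1 = 2 + (n - 3) := by omega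
          rw [h5, pow_add]
          norm_num
        rw [h4]
        exact dvd_mul_right 4 _
      · exact dvd_choose_two_of_odd hp hp2 (dvd_pow_self p (by omega))
  have hzpow : ((x ^ K)⁻¹ * y) ^ (p ^ (n - 1)) = 1 := by
    rw [hz, inv_pow, hu, inv_mul_cancel, one_mul, ← pow_mul]
    obtain ⟨r, hr⟩ := hdvd
    rw [hr, pow_mul, ← hcp, pow_orderOf_eq_one, one_pow]
  refine ⟨(x ^ K)⁻¹ * y, ?_, ?_⟩
  · intro h
    apply hxy
    have hux : Commute x ((x ^ K)⁻¹) := ((Commute.refl x).pow_right K).inv_right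
    have h5 : (x ^ K)⁻¹ * (x * y) = (x ^ K)⁻¹ * (y * x) := by
      calc (x ^ K)⁻¹ * (x * y) = x * ((x ^ K)⁻¹ * y) := by rw [← mul_assoc, ← hux.eq, mul_assoc]
        _ = (x ^ K)⁻¹ * y * x := h
        _ = (x ^ K)⁻¹ * (y * x) := by rw [mul_assoc]
    exact mul_left_cancel h5
  · have h5 : orderOf ((x ^ K)⁻¹ * y) ∣ p ^ (n - 1) := orderOf_dvd_of_pow_eq_one hzpow
    have h6 : orderOf ((x ^ K)⁻¹ * y) ≤ p ^ (n - 1) := Nat.le_of_dvd (pow_pos hp.pos _) h5
    rw [hn]
    have h7 : p ^ (n - 1) < p ^ n := Nat.pow_lt_pow_right hp.one_lt (by omega)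
    omega

theorem eq_sq_of_mem_zpowers {x c : G} (h4 : orderOf x = 4) (hc : c ∈ Subgroup.zpowers x)
    (hc2 : orderOf c = 2) : c = x * x := by
  obtain ⟨k, rfl⟩ := exists_pow_eq_of_mem_zpowers hc
  have h1 : x ^ k = x ^ (k % 4) := by rw [← h4, pow_mod_orderOf]
  have hlt : k % 4 < 4 := Nat.mod_lt _ (by norm_num)
  rw [h1] at hc2 ⊢
  interval_cases (k % 4)
  · simp at hc2
  · rw [pow_one, h4] at hc2
    omega
  · rw [pow_two]
  · rw [orderOf_pow' x (by norm_num : 3 ≠ 0), h4] at hc2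
    norm_num at hc2

/-- A finite group with all subgroups normal which is not abelian contains a quaternion pair. -/
theorem exists_quaternion_pair (hn : ∀ H : Subgroup G, H.Normal) :
    ∀ (N : ℕ) (x y : G), orderOf x + orderOf y = N → x * y ≠ y * x →
      ∃ a b : G, orderOf a = 4 ∧ orderOf b = 4 ∧ a * a = b * b ∧ b⁻¹ * a * b = a⁻¹ := by
  intro N
  induction N using Nat.strong_induction_on with
  | _ N ih =>
  intro x y hN hxy
  obtain ⟨c, hc⟩ : ∃ c, c = x⁻¹ * y⁻¹ * x * y := ⟨_, rfl⟩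
  obtain ⟨hcx, hcy⟩ := comm_mem_of_dedekind hn x y
  rw [← hc] at hcx hcy
  have hcomx := commute_of_mem_zpowers hcx
  have hcomy := commute_of_mem_zpowers hcy
  have hrel : x * y = y * x * c := by rw [hc]; group
  have hc1 : c ≠ 1 := by
    intro h
    apply hxy
    rw [hrel, h, mul_one]
  have hox : 0 < orderOf x := orderOf_pos x
  have hoy : 0 < orderOf y := orderOf_pos y
  by_cases hA : ∃ p : ℕ, p.Prime ∧ p ∣ orderOf x ∧ x ^ p * y ≠ y * x ^ p
  · obtain ⟨p, hp, hpx, hne⟩ := hA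
    have h1 : orderOf (x ^ p) = orderOf x / p := orderOf_pow_of_dvd hp.ne_zero hpx
    have hlt : orderOf (x ^ p) < orderOf x := by
      rw [h1]
      exact Nat.div_lt_self hox hp.one_lt
    exact ih (orderOf (x ^ p) + orderOf y) (by omega) (x ^ p) y rfl hne
  by_cases hB : ∃ p : ℕ, p.Prime ∧ p ∣ orderOf y ∧ x * y ^ p ≠ y ^ p * x
  · obtain ⟨p, hp, hpy, hne⟩ := hB
    have h1 : orderOf (y ^ p) = orderOf y / p := orderOf_pow_of_dvd hp.ne_zero hpy
    have hlt : orderOf (y ^ p) < orderOf y := by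
      rw [h1]
      exact Nat.div_lt_self hoy hp.one_lt
    exact ih (orderOf x + orderOf (y ^ p)) (by omega) x (y ^ p) rfl hne
  push Not at hA hB
  have hcp : ∀ p : ℕ, p.Prime → p ∣ orderOf x → c ^ p = 1 := by
    intro p hp hpx
    have h1 := pow_mul_of_comm hrel hcomx p
    rw [hA p hp hpx] at h1
    exact left_eq_mul.mp h1
  have hcq : ∀ p : ℕ, p.Prime → p ∣ orderOf y → c ^ p = 1 := by
    intro p hp hpy
    have h1 := mul_pow_of_comm' hrel hcomy p
    rw [hB p hp hpy] at h1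
    exact left_eq_mul.mp h1
  have hx1 : orderOf x ≠ 1 := by
    intro h
    rw [orderOf_eq_one_iff] at h
    apply hxy
    rw [h, one_mul, mul_one]
  have hy1 : orderOf y ≠ 1 := by
    intro h
    rw [orderOf_eq_one_iff] at h
    apply hxy
    rw [h, one_mul, mul_one]
  obtain ⟨p, hp, hpx⟩ := Nat.exists_prime_and_dvd hx1
  haveI : Fact p.Prime := ⟨hp⟩
  have hco : orderOf c = p := orderOf_eq_prime (hcp p hp hpx) hc1
  have hxu : ∀ {q : ℕ}, q.Prime → q ∣ orderOf x → q = p := by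
    intro q hq hqx
    haveI : Fact q.Prime := ⟨hq⟩
    have h1 : orderOf c = q := orderOf_eq_prime (hcp q hq hqx) hc1
    rw [hco] at h1
    exact h1.symm
  have hyu : ∀ {q : ℕ}, q.Prime → q ∣ orderOf y → q = p := by
    intro q hq hqy
    haveI : Fact q.Prime := ⟨hq⟩
    have h1 : orderOf c = q := orderOf_eq_prime (hcq q hq hqy) hc1
    rw [hco] at h1
    exact h1.symm
  obtain ⟨m, hm⟩ : ∃ m, orderOf x = p ^ m :=
    ⟨_, Nat.eq_prime_pow_of_unique_prime_dvd hox.ne' hxu⟩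
  obtain ⟨n, hn'⟩ : ∃ n, orderOf y = p ^ n :=
    ⟨_, Nat.eq_prime_pow_of_unique_prime_dvd hoy.ne' hyu⟩
  have final : p = 2 → m = 2 → n = 2 →
      ∃ a b : G, orderOf a = 4 ∧ orderOf b = 4 ∧ a * a = b * b ∧ b⁻¹ * a * b = a⁻¹ := by
    intro hp2 hm2 hn2
    subst hp2 hm2 hn2
    have hx4 : orderOf x = 4 := by rw [hm]; norm_num
    have hy4 : orderOf y = 4 := by rw [hn']; norm_num
    have e1 : c = x * x := eq_sq_of_mem_zpowers hx4 hcx hco
    have e2 : c = y * y := eq_sq_of_mem_zpowers hy4 hcy hco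
    refine ⟨x, y, hx4, hy4, by rw [← e1, ← e2], ?_⟩
    have hx3 : x ^ 4 = 1 := by
      have := pow_orderOf_eq_one x
      rwa [hx4] at this
    calc y⁻¹ * x * y = y⁻¹ * (x * y) := by rw [mul_assoc]
      _ = y⁻¹ * (y * x * c) := by rw [hrel]
      _ = x * x * x := by rw [e1]; simp only [mul_assoc, inv_mul_cancel_left]
      _ = x⁻¹ := by
          rw [eq_inv_iff_mul_eq_one]
          have h4 : x * x * x * x = x ^ 4 := by simp [pow_succ]
          rw [h4]
          exact hx3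
  rcases le_total n m with hnm | hmn
  · rcases dedekind_core x y c p m n hp hrel hcx hcy hco hm hn' hnm with
      ⟨hp2, hm2, hn2⟩ | ⟨z, hz1, hz2⟩
    · exact final hp2 hm2 hn2
    · exact ih (orderOf x + orderOf z) (by omega) x z rfl hz1
  · have hrel2 : y * x = x * y * c⁻¹ := by rw [hrel]; group
    have hcx2 : c⁻¹ ∈ Subgroup.zpowers y := Subgroup.inv_mem _ hcy
    have hcy2 : c⁻¹ ∈ Subgroup.zpowers x := Subgroup.inv_mem _ hcx
    have hco2 : orderOf c⁻¹ = p := by rw [orderOf_inv]; exact hco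
    rcases dedekind_core y x c⁻¹ p n m hp hrel2 hcx2 hcy2 hco2 hn' hm hmn with
      ⟨hp2, hn2, hm2⟩ | ⟨z, hz1, hz2⟩
    · exact final hp2 hm2 hn2
    · exact ih (orderOf z + orderOf y) (by omega) z y rfl (fun h => hz1 h.symm)

end core

section hamiltonian

variable {G : Type*} [Group G]

/-- A quaternion pair: two elements of order four with the same square, the second inverting
the first. -/
structure HamPair (x y : G) : Prop where
  ox : orderOf x = 4
  oy : orderOf y = 4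
  sq : x * x = y * y
  conj : y⁻¹ * x * y = x⁻¹

theorem mem_zpowers_cases4 [Finite G] {x c : G} (h4 : x ^ 4 = 1) (hc : c ∈ Subgroup.zpowers x) :
    ∃ k, k < 4 ∧ c = x ^ k := by
  obtain ⟨k, rfl⟩ := exists_pow_eq_of_mem_zpowers hc
  exact ⟨k % 4, Nat.mod_lt _ (by norm_num), pow_eq_pow_mod k h4⟩

theorem mem_zpowers_cases2 [Finite G] {z w : G} (h2 : z * z = 1) (hw : w ∈ Subgroup.zpowers z) :
    w = 1 ∨ w = z := by
  obtain ⟨k, rfl⟩ := exists_pow_eq_of_mem_zpowers hw
  have h2' : z ^ 2 = 1 := by rw [pow_two]; exact h2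
  rw [pow_eq_pow_mod k h2']
  rcases Nat.mod_two_eq_zero_or_one k with h | h
  · left; rw [h, pow_zero]
  · right; rw [h, pow_one]

theorem isMulCommutative_of_sq {E : Subgroup G} (h : ∀ a ∈ E, a * a = 1) : IsMulCommutative E := by
  refine ⟨⟨fun a b => ?_⟩⟩
  have ha : a * a = 1 := Subtype.ext (h a a.2)
  have hb : b * b = 1 := Subtype.ext (h b b.2)
  have hab : (a * b) * (a * b) = 1 := Subtype.ext (h _ (a * b).2)
  have ha' : a⁻¹ = a := inv_eq_of_mul_eq_one_left ha
  have hb' : b⁻¹ = b := inv_eq_of_mul_eq_one_left hb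
  calc a * b = (a * b)⁻¹ := (inv_eq_of_mul_eq_one_left hab).symm
    _ = b⁻¹ * a⁻¹ := mul_inv_rev _ _
    _ = b * a := by rw [ha', hb']

namespace HamPair

variable {x y : G}

theorem x4 (h : HamPair x y) : x ^ 4 = 1 := by
  have := pow_orderOf_eq_one x
  rwa [h.ox] at this

theorem y4 (h : HamPair x y) : y ^ 4 = 1 := by
  have := pow_orderOf_eq_one y
  rwa [h.oy] at this

theorem xx_ne (h : HamPair x y) : x * x ≠ 1 := by
  intro h1
  have h2 : orderOf x ∣ 2 := orderOf_dvd_of_pow_eq_one (by rw [pow_two]; exact h1)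
  rw [h.ox] at h2
  omega

theorem yy_ne (h : HamPair x y) : y * y ≠ 1 := by rw [← h.sq]; exact h.xx_ne

theorem xinv (h : HamPair x y) : x⁻¹ = x * x * x := by
  apply inv_eq_of_mul_eq_one_right
  have := h.x4
  simpa [pow_succ, mul_assoc] using this

theorem conj1 (h : HamPair x y) : y * x * y⁻¹ = x⁻¹ := by
  have h1 : x = y * x⁻¹ * y⁻¹ := by rw [← h.conj]; group
  calc y * x * y⁻¹ = (y * x⁻¹ * y⁻¹)⁻¹ := by group
    _ = x⁻¹ := by rw [← h1]

theorem conj2 (h : HamPair x y) : x * y * x⁻¹ = y⁻¹ := by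
  have h1 : x * y = y * x⁻¹ := by rw [← h.conj]; group
  calc x * y * x⁻¹ = y * (x * x)⁻¹ := by rw [h1]; group
    _ = y⁻¹ := by rw [h.sq]; group

theorem symm (h : HamPair x y) : HamPair y x := by
  refine ⟨h.oy, h.ox, h.sq.symm, ?_⟩
  have h1 : y = x⁻¹ * y⁻¹ * x := by rw [← h.conj2]; group
  calc x⁻¹ * y * x = (x⁻¹ * y⁻¹ * x)⁻¹ := by group
    _ = y⁻¹ := by rw [← h1]

theorem ne_comm (h : HamPair x y) : x * y ≠ y * x := by
  intro h1
  have h2 : x = x⁻¹ := by
    rw [← h.conj, mul_assoc, h1]; group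
  apply h.xx_ne
  calc x * x = x * x⁻¹ := by rw [← h2]
    _ = 1 := mul_inv_cancel x

theorem conj_cases [Finite G] (h : HamPair x y) (hn : ∀ H : Subgroup G, H.Normal) (g : G) :
    g * x * g⁻¹ = x ∨ g * x * g⁻¹ = x⁻¹ := by
  have h1 : g * x * g⁻¹ ∈ Subgroup.zpowers x := (hn _).conj_mem x (Subgroup.mem_zpowers x) g
  obtain ⟨k, hk, h2⟩ := mem_zpowers_cases4 h.x4 h1
  interval_cases k
  · exfalso
    rw [pow_zero] at h2
    have h3 : x = 1 := by
      have : x = g⁻¹ * (g * x * g⁻¹) * g := by group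
      rw [this, h2]; group
    exact h.xx_ne (by rw [h3, mul_one])
  · left; rw [h2, pow_one]
  · exfalso
    have h3 : g * (x * x) * g⁻¹ = 1 := by
      calc g * (x * x) * g⁻¹ = (g * x * g⁻¹) * (g * x * g⁻¹) := by group
        _ = x ^ 2 * x ^ 2 := by rw [h2]
        _ = 1 := by rw [← pow_add]; exact h.x4
    have h4 : x * x = 1 := by
      have : x * x = g⁻¹ * (g * (x * x) * g⁻¹) * g := by group
      rw [this, h3]; group
    exact h.xx_ne h4
  · right; rw [h2, h.xinv]; simp [pow_succ]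

theorem exists_conj_eq [Finite G] (h : HamPair x y) (hn : ∀ H : Subgroup G, H.Normal) (g : G) :
    ∃ q ∈ Subgroup.zpowers x ⊔ Subgroup.zpowers y,
      q * x * q⁻¹ = g * x * g⁻¹ ∧ q * y * q⁻¹ = g * y * g⁻¹ := by
  have hx : x ∈ Subgroup.zpowers x ⊔ Subgroup.zpowers y :=
    (le_sup_left : Subgroup.zpowers x ≤ _) (Subgroup.mem_zpowers x)
  have hy : y ∈ Subgroup.zpowers x ⊔ Subgroup.zpowers y :=
    (le_sup_right : Subgroup.zpowers y ≤ _) (Subgroup.mem_zpowers y)
  rcases h.conj_cases hn g with h1 | h1 <;> rcases h.symm.conj_cases hn g with h2 | h2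
  · exact ⟨1, Subgroup.one_mem _, by rw [h1]; group, by rw [h2]; group⟩
  · exact ⟨x, hx, by rw [h1]; group, by rw [h2, h.conj2]⟩
  · exact ⟨y, hy, by rw [h1, h.conj1], by rw [h2]; group⟩
  · refine ⟨x * y, Subgroup.mul_mem _ hx hy, ?_, ?_⟩
    · rw [h1]
      calc x * y * x * (x * y)⁻¹ = x * (y * x * y⁻¹) * x⁻¹ := by group
        _ = x⁻¹ := by rw [h.conj1]; group
    · rw [h2]
      calc x * y * y * (x * y)⁻¹ = x * y * x⁻¹ := by group
        _ = y⁻¹ := h.conj2

theorem exists_decomp [Finite G] (h : HamPair x y) (hn : ∀ H : Subgroup G, H.Normal) (g : G) :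
    ∃ q ∈ Subgroup.zpowers x ⊔ Subgroup.zpowers y, ∃ z : G,
      g = q * z ∧ z * x = x * z ∧ z * y = y * z := by
  obtain ⟨q, hq, h1, h2⟩ := h.exists_conj_eq hn g
  refine ⟨q, hq, q⁻¹ * g, by group, ?_, ?_⟩
  · calc q⁻¹ * g * x = q⁻¹ * (g * x * g⁻¹) * g := by group
      _ = q⁻¹ * (q * x * q⁻¹) * g := by rw [h1]
      _ = x * (q⁻¹ * g) := by group
  · calc q⁻¹ * g * y = q⁻¹ * (g * y * g⁻¹) * g := by group
      _ = q⁻¹ * (q * y * q⁻¹) * g := by rw [h2]
      _ = y * (q⁻¹ * g) := by group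

theorem sq_eq_one_of_pow_four [Finite G] (h : HamPair x y) (hn : ∀ H : Subgroup G, H.Normal)
    {z : G} (hzx : z * x = x * z) (hzy : z * y = y * z) (hz4 : z ^ 4 = 1) : z * z = 1 := by
  have hw : x * (z * y) * x⁻¹ ∈ Subgroup.zpowers (z * y) :=
    (hn _).conj_mem _ (Subgroup.mem_zpowers _) x
  have e1 : x * (z * y) * x⁻¹ = z * y⁻¹ := by
    calc x * (z * y) * x⁻¹ = (x * z) * y * x⁻¹ := by group
      _ = z * (x * y * x⁻¹) := by rw [← hzx]; group
      _ = z * y⁻¹ := by rw [h.conj2]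
  rw [e1] at hw
  have hyy : y * y ∈ Subgroup.zpowers (z * y) := by
    have h3 : (z * y) * (z * y⁻¹)⁻¹ ∈ Subgroup.zpowers (z * y) :=
      Subgroup.mul_mem _ (Subgroup.mem_zpowers _) (Subgroup.inv_mem _ hw)
    have e2 : (z * y) * (z * y⁻¹)⁻¹ = y * y := by
      calc (z * y) * (z * y⁻¹)⁻¹ = (z * y) * y * z⁻¹ := by group
        _ = (y * z) * y * z⁻¹ := by rw [hzy]
        _ = y * (z * y) * z⁻¹ := by group
        _ = y * (y * z) * z⁻¹ := by rw [hzy]
        _ = y * y := by group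
    rwa [e2] at h3
  have hcomm : Commute z y := hzy
  have hw4 : (z * y) ^ 4 = 1 := by rw [hcomm.mul_pow, hz4, h.y4, one_mul]
  have hz3 : z ^ 3 = z⁻¹ := by
    rw [eq_inv_iff_mul_eq_one, ← pow_succ]; exact hz4
  have hy3 : y ^ 3 = y⁻¹ := by
    rw [eq_inv_iff_mul_eq_one, ← pow_succ]; exact h.y4
  obtain ⟨k, hk, h5⟩ := mem_zpowers_cases4 hw4 hyy
  interval_cases k
  · rw [pow_zero] at h5
    exact absurd h5 h.yy_ne
  · rw [pow_one] at h5
    have h6 : z = y := (mul_right_cancel h5).symm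
    rw [h6] at hzx
    exact absurd hzx.symm h.ne_comm
  · rw [hcomm.mul_pow, pow_two, pow_two] at h5
    exact right_eq_mul.mp h5
  · rw [hcomm.mul_pow, hz3, hy3] at h5
    have h6 : z⁻¹ = y * y * y := by rw [h5]; group
    have h7 : y * y * y = y⁻¹ := by rw [← hy3]; simp [pow_succ]
    rw [h7] at h6
    have h8 : z = y := inv_injective h6
    rw [h8] at hzx
    exact absurd hzx.symm h.ne_comm

theorem sq_eq_one_of_pow_two_pow [Finite G] (h : HamPair x y) (hn : ∀ H : Subgroup G, H.Normal) :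
    ∀ (k : ℕ) (z : G), z * x = x * z → z * y = y * z → z ^ (2 ^ k) = 1 → z * z = 1 := by
  intro k
  induction k with
  | zero =>
    intro z _ _ hz
    rw [pow_zero, pow_one] at hz
    rw [hz, mul_one]
  | succ k ih =>
    intro z hzx hzy hz
    have h1 : (z * z) ^ (2 ^ k) = 1 := by
      rw [← pow_two, ← pow_mul, ← pow_succ']; exact hz
    have h2 : z * z * (z * z) = 1 :=
      ih (z * z) (by rw [mul_assoc, hzx, ← mul_assoc, hzx, mul_assoc])
        (by rw [mul_assoc, hzy, ← mul_assoc, hzy, mul_assoc]) h1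
    exact h.sq_eq_one_of_pow_four hn hzx hzy (by simpa [pow_succ, mul_assoc] using h2)

theorem card_sup [Finite G] (h : HamPair x y) (hn : ∀ H : Subgroup G, H.Normal) :
    Nat.card ↥(Subgroup.zpowers x ⊔ Subgroup.zpowers y) = 8 := by
  haveI := hn (Subgroup.zpowers x)
  have hcx : Nat.card (Subgroup.zpowers x) = 4 := by rw [Nat.card_zpowers, h.ox]
  have hcy : Nat.card (Subgroup.zpowers y) = 4 := by rw [Nat.card_zpowers, h.oy]
  have hI : Nat.card ↥(Subgroup.zpowers x ⊓ Subgroup.zpowers y) = 2 := by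
    have hd : Nat.card ↥(Subgroup.zpowers x ⊓ Subgroup.zpowers y) ∣ 2 ^ 2 := by
      have : Nat.card ↥(Subgroup.zpowers x ⊓ Subgroup.zpowers y) ∣ Nat.card (Subgroup.zpowers x) :=
        Subgroup.card_dvd_of_le inf_le_left
      rw [hcx] at this
      exact this
    have hne1 : Nat.card ↥(Subgroup.zpowers x ⊓ Subgroup.zpowers y) ≠ 1 := by
      intro h1
      have hbot : Subgroup.zpowers x ⊓ Subgroup.zpowers y = ⊥ := Subgroup.card_eq_one.mp h1
      have hmem : x * x ∈ Subgroup.zpowers x ⊓ Subgroup.zpowers y :=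
        ⟨Subgroup.mul_mem _ (Subgroup.mem_zpowers x) (Subgroup.mem_zpowers x), by
          rw [h.sq]; exact Subgroup.mul_mem _ (Subgroup.mem_zpowers y) (Subgroup.mem_zpowers y)⟩
      rw [hbot, Subgroup.mem_bot] at hmem
      exact h.xx_ne hmem
    have hne4 : Nat.card ↥(Subgroup.zpowers x ⊓ Subgroup.zpowers y) ≠ 4 := by
      intro h4
      have heq : Subgroup.zpowers x ⊓ Subgroup.zpowers y = Subgroup.zpowers x :=
        Subgroup.eq_of_le_of_card_ge inf_le_left (by rw [h4, hcx])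
      have hxy : x ∈ Subgroup.zpowers y := by
        have : x ∈ Subgroup.zpowers x ⊓ Subgroup.zpowers y := by
          rw [heq]; exact Subgroup.mem_zpowers x
        exact this.2
      exact h.ne_comm (commute_of_mem_zpowers hxy)
    obtain ⟨m, hm, hm2⟩ := (Nat.dvd_prime_pow Nat.prime_two).mp hd
    interval_cases m
    · exact absurd (by simpa using hm2) hne1
    · simpa using hm2
    · exact absurd (by simpa using hm2) hne4
  have h1 : (Subgroup.zpowers x).relIndex (Subgroup.zpowers x ⊔ Subgroup.zpowers y) =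
      (Subgroup.zpowers x).relIndex (Subgroup.zpowers y) := Subgroup.relIndex_sup_left _ _
  have h2 : (Subgroup.zpowers x ⊓ Subgroup.zpowers y).relIndex (Subgroup.zpowers y) =
      (Subgroup.zpowers x).relIndex (Subgroup.zpowers y) := Subgroup.inf_relIndex_right _ _
  have h3 : Nat.card ↥(Subgroup.zpowers x ⊓ Subgroup.zpowers y) *
      (Subgroup.zpowers x ⊓ Subgroup.zpowers y).relIndex (Subgroup.zpowers y) =
        Nat.card (Subgroup.zpowers y) := by
    have := Subgroup.relIndex_mul_relIndex ⊥ (Subgroup.zpowers x ⊓ Subgroup.zpowers y)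
      (Subgroup.zpowers y) bot_le inf_le_right
    rwa [Subgroup.relIndex_bot_left, Subgroup.relIndex_bot_left] at this
  have h4 : Nat.card (Subgroup.zpowers x) *
      (Subgroup.zpowers x).relIndex (Subgroup.zpowers x ⊔ Subgroup.zpowers y) =
        Nat.card ↥(Subgroup.zpowers x ⊔ Subgroup.zpowers y) := by
    have := Subgroup.relIndex_mul_relIndex ⊥ (Subgroup.zpowers x)
      (Subgroup.zpowers x ⊔ Subgroup.zpowers y) bot_le le_sup_left
    rwa [Subgroup.relIndex_bot_left, Subgroup.relIndex_bot_left] at this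
  rw [← h4, h1, ← h2, hcx]
  rw [hI, hcy] at h3
  omega

theorem nonempty_mulEquiv [Finite G] (h : HamPair x y) (hn : ∀ H : Subgroup G, H.Normal) :
    Nonempty (↥(Subgroup.zpowers x ⊔ Subgroup.zpowers y) ≃* QuaternionGroup 2) := by
  have hx : x ∈ Subgroup.zpowers x ⊔ Subgroup.zpowers y :=
    (le_sup_left : Subgroup.zpowers x ≤ _) (Subgroup.mem_zpowers x)
  have hy : y ∈ Subgroup.zpowers x ⊔ Subgroup.zpowers y :=
    (le_sup_right : Subgroup.zpowers y ≤ _) (Subgroup.mem_zpowers y)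
  refine Cfsg.Agent.Lib.Helper73.nonempty_mulEquiv_quaternionGroup 2
    (⟨x, hx⟩ : ↥(Subgroup.zpowers x ⊔ Subgroup.zpowers y)) ⟨y, hy⟩ ?_ ?_ ?_ ?_ ?_
  · rw [Subgroup.orderOf_mk, h.ox]
  · apply Subtype.ext
    show y ^ 2 = x ^ 2
    rw [pow_two, pow_two, h.sq]
  · apply Subtype.ext
    show y * x * y⁻¹ = x⁻¹
    exact h.conj1
  · intro hmem
    obtain ⟨k, hk⟩ := Subgroup.mem_zpowers_iff.mp hmem
    have hk' : x ^ k = y := by
      have := congrArg Subtype.val hk
      simpa using this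
    have hyx : y ∈ Subgroup.zpowers x := Subgroup.mem_zpowers_iff.mpr ⟨k, hk'⟩
    exact h.ne_comm (commute_of_mem_zpowers hyx).symm
  · rw [h.card_sup hn]

end HamPair

/-- Dedekind–Baer: structure of a finite Hamiltonian group. -/
theorem hamiltonian_structure [Finite G] (hna : ¬ IsMulCommutative G)
    (hn : ∀ H : Subgroup G, H.Normal) :
    ∃ Q E A : Subgroup G, Nonempty (Q ≃* QuaternionGroup 2) ∧
      (IsMulCommutative E ∧ ∀ a ∈ E, a ^ 2 = 1) ∧
      IsMulCommutative A ∧ Odd (Nat.card A) ∧ E ⊓ A = ⊥ ∧ Q ⊓ (E ⊔ A) = ⊥ ∧ Q ⊔ (E ⊔ A) = ⊤ := by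
  classical
  obtain ⟨x₀, y₀, hxy₀⟩ : ∃ x y : G, x * y ≠ y * x := by
    by_contra hcon
    push Not at hcon
    exact hna ⟨⟨hcon⟩⟩
  obtain ⟨x, y, hox, hoy, hsq, hconj⟩ := exists_quaternion_pair hn _ x₀ y₀ rfl hxy₀
  have hp : HamPair x y := ⟨hox, hoy, hsq, hconj⟩
  obtain ⟨Q, hQ⟩ : ∃ Q : Subgroup G, Q = Subgroup.zpowers x ⊔ Subgroup.zpowers y := ⟨_, rfl⟩
  haveI : Fact (Nat.Prime 2) := ⟨Nat.prime_two⟩
  obtain ⟨P⟩ : Nonempty (Sylow 2 G) := inferInstance
  haveI hPn : (P : Subgroup G).Normal := hn _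
  have hcop : Nat.Coprime (Nat.card (P : Subgroup G)) (P : Subgroup G).index :=
    P.card_coprime_index
  obtain ⟨A, hA⟩ := Subgroup.exists_right_complement'_of_coprime hcop
  have hPA : (P : Subgroup G) ⊓ A = ⊥ := hA.disjoint.eq_bot
  have hPAtop : (P : Subgroup G) ⊔ A = ⊤ := hA.sup_eq_top
  have hAodd : Odd (Nat.card A) := by
    have h1 : Nat.card (P : Subgroup G) * Nat.card A = Nat.card G := hA.card_mul_card
    have h2 : Nat.card (P : Subgroup G) * (P : Subgroup G).index = Nat.card G :=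
      Subgroup.card_mul_index _
    have h3 : Nat.card A = (P : Subgroup G).index := by
      have hpos : 0 < Nat.card (P : Subgroup G) := Nat.card_pos
      exact Nat.eq_of_mul_eq_mul_left hpos (h1.trans h2.symm)
    rw [h3]
    have : ¬ 2 ∣ (P : Subgroup G).index := P.not_dvd_index
    exact Nat.odd_iff.mpr (by omega)
  have hAcomm : IsMulCommutative A := by
    by_contra hcon
    obtain ⟨u, v, huv⟩ : ∃ u v : A, u * v ≠ v * u := by
      by_contra hc2
      push Not at hc2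
      exact hcon ⟨⟨hc2⟩⟩
    have hnA : ∀ H : Subgroup A, H.Normal := by
      intro H
      have h1 : (H.map A.subtype).Normal := hn _
      have h2 : ((H.map A.subtype).comap A.subtype).Normal := h1.comap _
      rwa [Subgroup.comap_map_eq_self_of_injective A.subtype_injective] at h2
    obtain ⟨a, b, hoa, -, -, -⟩ := exists_quaternion_pair hnA _ u v rfl huv
    have hdvd : orderOf a ∣ Nat.card A := orderOf_dvd_natCard a
    rw [hoa] at hdvd
    obtain ⟨t, ht⟩ := hAodd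
    omega
  have hQP : Q ≤ P := by
    have hQ2 : IsPGroup 2 Q := IsPGroup.of_card (n := 3) (by rw [hQ, hp.card_sup hn]; norm_num)
    obtain ⟨P', hP'⟩ := hQ2.exists_le_sylow
    haveI := Sylow.unique_of_normal P hPn
    have : P' = P := Subsingleton.elim _ _
    rw [← this]; exact hP'
  obtain ⟨C, hC⟩ : ∃ C : Subgroup G, C = Subgroup.centralizer ({x, y} : Set G) := ⟨_, rfl⟩
  have hCmem : ∀ z : G, z ∈ C ↔ z * x = x * z ∧ z * y = y * z := by
    intro z
    rw [hC, Subgroup.mem_centralizer_iff]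
    constructor
    · intro hz
      exact ⟨(hz x (by simp)).symm, (hz y (by simp)).symm⟩
    · rintro ⟨h1, h2⟩ w hw
      rcases hw with rfl | rfl
      · exact h1.symm
      · exact h2.symm
  have hexp : ∀ z ∈ (P : Subgroup G) ⊓ C, z * z = 1 := by
    rintro z ⟨hzP, hzC⟩
    obtain ⟨h1, h2⟩ := (hCmem z).mp hzC
    obtain ⟨k, hk⟩ := P.2 ⟨z, hzP⟩
    have hk' : z ^ (2 ^ k) = 1 := by
      have := congrArg Subtype.val hk
      simpa using this
    exact hp.sq_eq_one_of_pow_two_pow hn k z h1 h2 hk'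
  have hSfin : ({E | E ≤ (P : Subgroup G) ⊓ C ∧ E ⊓ Q = ⊥} : Set (Subgroup G)).Finite :=
    Set.toFinite _
  have hbotS : (⊥ : Subgroup G) ∈ ({E | E ≤ (P : Subgroup G) ⊓ C ∧ E ⊓ Q = ⊥} : Set (Subgroup G)) :=
    ⟨bot_le, bot_inf_eq _⟩
  obtain ⟨E, -, hE⟩ := hSfin.exists_le_maximal hbotS
  obtain ⟨hEC, hEQ⟩ := hE.prop
  have hEP : E ≤ P := fun e he => (hEC he).1
  have hkey : (P : Subgroup G) ⊓ C ≤ Q ⊔ E := by
    intro z hz
    by_contra hzn
    have hzz : z * z = 1 := hexp z hz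
    have hE' : E ⊔ Subgroup.zpowers z ∈
        ({E | E ≤ (P : Subgroup G) ⊓ C ∧ E ⊓ Q = ⊥} : Set (Subgroup G)) := by
      refine ⟨sup_le hEC (by rw [Subgroup.zpowers_le]; exact hz), ?_⟩
      rw [eq_bot_iff]
      rintro u ⟨hu1, hu2⟩
      haveI := hn (Subgroup.zpowers z)
      obtain ⟨e, he, w, hw, rfl⟩ := Subgroup.mem_sup_of_normal_right.mp hu1
      rcases mem_zpowers_cases2 hzz hw with rfl | rfl
      · rw [mul_one] at hu2 ⊢
        have : e ∈ E ⊓ Q := ⟨he, hu2⟩
        rwa [hEQ] at this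
      · exfalso
        apply hzn
        have : w = e⁻¹ * (e * w) := by group
        rw [this]
        exact Subgroup.mul_mem _ ((le_sup_right : E ≤ Q ⊔ E) (Subgroup.inv_mem _ he))
          ((le_sup_left : Q ≤ Q ⊔ E) hu2)
    have hle : E ⊔ Subgroup.zpowers z ≤ E := hE.le_of_ge hE' le_sup_left
    exact hzn ((le_sup_right : E ≤ Q ⊔ E)
      (hle ((le_sup_right : Subgroup.zpowers z ≤ E ⊔ Subgroup.zpowers z)
        (Subgroup.mem_zpowers z))))
  refine ⟨Q, E, A, by rw [hQ]; exact hp.nonempty_mulEquiv hn, ⟨?_, ?_⟩, hAcomm, hAodd, ?_, ?_, ?_⟩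
  · exact isMulCommutative_of_sq (fun a ha => hexp a (hEC ha))
  · intro a ha
    rw [pow_two]
    exact hexp a (hEC ha)
  · rw [eq_bot_iff, ← hPA]
    exact inf_le_inf_right _ hEP
  · rw [eq_bot_iff]
    rintro u ⟨hu1, hu2⟩
    haveI := hn A
    obtain ⟨e, he, a, ha, rfl⟩ := Subgroup.mem_sup_of_normal_right.mp hu2
    have haP : a ∈ (P : Subgroup G) := by
      have : a = e⁻¹ * (e * a) := by group
      rw [this]
      exact Subgroup.mul_mem _ (Subgroup.inv_mem _ (hEP he)) (hQP hu1)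
    have ha1 : a = 1 := by
      have : a ∈ (P : Subgroup G) ⊓ A := ⟨haP, ha⟩
      rwa [hPA, Subgroup.mem_bot] at this
    subst ha1
    rw [mul_one] at hu1 ⊢
    have : e ∈ E ⊓ Q := ⟨he, hu1⟩
    rwa [hEQ] at this
  · rw [eq_top_iff]
    intro g _
    have hg : g ∈ (P : Subgroup G) ⊔ A := by rw [hPAtop]; trivial
    haveI := hn A
    obtain ⟨s, hs, a, ha, rfl⟩ := Subgroup.mem_sup_of_normal_right.mp hg
    obtain ⟨q, hq, z, hsz, hzx, hzy⟩ := hp.exists_decomp hn s
    rw [← hQ] at hq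
    have hzP : z ∈ (P : Subgroup G) := by
      have : z = q⁻¹ * s := by rw [hsz]; group
      rw [this]
      exact Subgroup.mul_mem _ (Subgroup.inv_mem _ (hQP hq)) hs
    have hzC : z ∈ C := (hCmem z).mpr ⟨hzx, hzy⟩
    have hzQE : z ∈ Q ⊔ E := hkey ⟨hzP, hzC⟩
    have hsQE : s ∈ Q ⊔ E := by
      rw [hsz]
      exact Subgroup.mul_mem _ ((le_sup_left : Q ≤ Q ⊔ E) hq) hzQE
    have h1 : Q ⊔ E ≤ Q ⊔ (E ⊔ A) := sup_le le_sup_left (le_sup_of_le_right le_sup_left)
    have h2 : A ≤ Q ⊔ (E ⊔ A) := le_sup_of_le_right le_sup_right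
    exact Subgroup.mul_mem _ (h1 hsQE) (h2 ha)

end hamiltonian

end Cfsg.Agent.Lib.Helper53
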