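import Mathlib
import Cfsg.Agent.Lib.Helper53.ZStar
import Cfsg.Agent.S0016

/-!
# The rank-one base case of the Z*-theorem from Brauer–Suzuki (quaternion case) and Burnside
-/

set_option autoImplicit false

namespace Cfsg.Agent.Lib.Helper53

open Subgroup

universe u

/-- Brauer–Suzuki in Z*-form for generalized quaternion Sylow `2`-subgroups. -/
def QHyp : Prop :=
  ∀ (H : Type u) [Group H] [Finite H] (S : Sylow 2 H) (n : ℕ)
    (_ : (S : Subgroup H) ≃* QuaternionGroup (2 ^ (n + 1))) (t : H), orderOf t = 2 →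
    ∃ N : Subgroup H, N.Normal ∧ Odd (Nat.card N) ∧ ∀ g : H, t * g * t⁻¹ * g⁻¹ ∈ N

/-- Burnside: with a cyclic Sylow `2`-subgroup every commutator lies in a normal subgroup of odd
order. -/
theorem zstar_cyclic {H : Type u} [Group H] [Finite H] (S : Sylow 2 H)
    (hcyc : IsCyclic (S : Subgroup H)) (t : H) (ht : orderOf t = 2) :
    ∃ N : Subgroup H, N.Normal ∧ Odd (Nat.card N) ∧ ∀ g : H, t * g * t⁻¹ * g⁻¹ ∈ N := by
  have hf2 : Fact (Nat.Prime 2) := ⟨Nat.prime_two⟩
  have h2 : 2 ∣ Nat.card H := by
    rw [← ht]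
    exact orderOf_dvd_natCard t
  have hmin : (Nat.card H).minFac = 2 := (Nat.minFac_eq_two_iff _).mpr h2
  have hN := IsCyclic.normalizer_le_centralizer hmin hcyc
  refine ⟨(MonoidHom.transferSylow S hN).ker, inferInstance, ?_, ?_⟩
  · have h3 := MonoidHom.not_dvd_card_ker_transferSylow S hN
    rw [← Nat.not_even_iff_odd, even_iff_two_dvd]
    exact h3
  · intro g
    rw [MonoidHom.mem_ker, map_mul, map_mul, map_mul, map_inv, map_inv]
    have hcomm : (MonoidHom.transferSylow S hN) t * (MonoidHom.transferSylow S hN) g =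
        (MonoidHom.transferSylow S hN) g * (MonoidHom.transferSylow S hN) t :=
      Std.Commutative.comm (op := (· * ·)) _ _
    rw [hcomm]
    group

/-- The rank-one base case from the quaternion case. -/
theorem bsHyp_of_qHyp (hQ : QHyp.{u}) : BSHyp.{u} := by
  intro H _ _ S t ht htS huniq
  have hf2 : Fact (Nat.Prime 2) := ⟨Nat.prime_two⟩
  have hS : IsPGroup 2 (S : Subgroup H) := S.isPGroup'
  have ht' : orderOf (⟨t, htS⟩ : (S : Subgroup H)) = 2 :=
    (Subgroup.orderOf_mk t htS).trans ht
  have hsub : ∀ A : Subgroup (S : Subgroup H), Nat.card A = 2 →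
      A = zpowers (⟨t, htS⟩ : (S : Subgroup H)) := by
    intro A hA
    symm
    apply Subgroup.eq_of_le_of_card_ge
    · rw [zpowers_le]
      have hnt : Nontrivial A := by
        rw [← Finite.one_lt_card_iff_nontrivial, hA]
        norm_num
      obtain ⟨a, ha⟩ := exists_ne (1 : A)
      have h1 : orderOf a ∣ 2 := by
        have := orderOf_dvd_natCard a
        rwa [hA] at this
      have h2 : orderOf a ≠ 1 := fun h => ha (orderOf_eq_one_iff.mp h)
      have h3 : orderOf a = 2 := by
        have := Nat.le_of_dvd (by norm_num) h1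
        have h0 : orderOf a ≠ 0 := (orderOf_pos a).ne'
        omega
      have h4 : orderOf (((a : A) : (S : Subgroup H)) : H) = 2 := by
        rw [Subgroup.orderOf_coe, Subgroup.orderOf_coe]
        exact h3
      have h5 := huniq _ (a : (S : Subgroup H)).2 h4
      have h6 : (a : (S : Subgroup H)) = ⟨t, htS⟩ := Subtype.ext h5
      rw [← h6]
      exact a.2
    · rw [hA, Nat.card_zpowers, ht']
  have h16 := Cfsg.Agent.S0016.result (G := (S : Subgroup H)) 2 hS
    (fun A B hA hB => by rw [hsub A hA, hsub B hB])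
  rcases h16 with hcyc | ⟨-, n, ⟨e⟩⟩
  · exact zstar_cyclic S hcyc t ht
  · rcases n with _ | m
    · have hcyc1 : IsCyclic (QuaternionGroup (2 ^ 0)) := by
        rw [pow_zero]
        exact QuaternionGroup.quaternionGroup_one_isCyclic
      have hcyc : IsCyclic (S : Subgroup H) :=
        isCyclic_of_surjective e.symm e.symm.surjective
      exact zstar_cyclic S hcyc t ht
    · exact hQ H S m e t ht

end Cfsg.Agent.Lib.Helper53
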